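import Cfsg.Agent.Lib.Mat.Sift
import Cfsg.Agent.Lib.Classical.UnitaryCenter
import Cfsg.Agent.Lib.TC.Uniq

/-!
# Projective unitary groups acting on sets of vectors, from packed matrices
-/

set_option autoImplicit false

namespace Cfsg.Agent.Lib.Conway.PSUK

open Cfsg.Agent.Lib.TC Cfsg.Agent.Lib.TC.Fast Cfsg.Agent.Lib.Mat
open Matrix

variable {K : Type} [Field K] [Fintype K] {n q : ℕ}

/-- The matrix of an element. -/
noncomputable def ι : Cfsg.SU n K q →* Matrix (Fin n) (Fin n) K where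
  toFun g := (g.1 : Matrix.SpecialLinearGroup (Fin n) K).1
  map_one' := rfl
  map_mul' _ _ := rfl

theorem ι_inj {a b : Cfsg.SU n K q} (h : ι a = ι b) : a = b := Subtype.ext (Subtype.ext h)

/-- The action on vectors. -/
noncomputable abbrev α : Cfsg.SU n K q →* Equiv.Perm (Fin n → K) := actPerm (Γ := Cfsg.SU n K q) ι

theorem α_smul (g : Cfsg.SU n K q) (c : K) (u : Fin n → K) : α g (c • u) = c • α g u := by
  rw [actPerm_apply, actPerm_apply, Matrix.mulVec_smul]

/-- Sets of vectors closed under scalars. -/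
abbrev Y (K : Type) [Field K] (n : ℕ) := {S : Set (Fin n → K) // ∀ c : K, c ≠ 0 → ∀ x ∈ S, c • x ∈ S}

/-- The image of such a set. -/
def act (g : Cfsg.SU n K q) (S : Y K n) : Y K n :=
  ⟨α g '' S.1, by
    rintro c hc _ ⟨x, hx, rfl⟩
    exact ⟨c • x, S.2 c hc x hx, α_smul g c x⟩⟩

theorem act_one (S : Y K n) : act (1 : Cfsg.SU n K q) S = S := by
  apply Subtype.ext
  show α (1 : Cfsg.SU n K q) '' S.1 = S.1
  simp

theorem act_mul (a b : Cfsg.SU n K q) (S : Y K n) : act (a * b) S = act a (act b S) := by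
  apply Subtype.ext
  show α (a * b) '' S.1 = α a '' (α b '' S.1)
  rw [Set.image_image, map_mul]
  rfl

/-- The action of the unitary group. -/
noncomputable def βt : Cfsg.SU n K q →* Equiv.Perm (Y K n) where
  toFun g :=
    { toFun := act g
      invFun := act g⁻¹
      left_inv := fun S => by rw [← act_mul, inv_mul_cancel, act_one]
      right_inv := fun S => by rw [← act_mul, mul_inv_cancel, act_one] }
  map_one' := by
    apply Equiv.ext
    exact act_one
  map_mul' a b := by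
    apply Equiv.ext
    exact act_mul a b

theorem center_act (hK : Fintype.card K = q ^ 2) (hn : n ≠ 0) (g : Cfsg.SU n K q) (hg : g ∈ Subgroup.center (Cfsg.SU n K q)) (S : Y K n) :
    act g S = S := by
  obtain ⟨c, hc⟩ := Cfsg.Agent.Lib.Classical.center_scalar hK g hg
  have hc' : ι g = c • (1 : Matrix (Fin n) (Fin n) K) := by
    rcases hc with hc | hc
    · exact hc
    · exact absurd hc hn
  have hc0 : c ≠ 0 := by
    rintro rfl
    have h1 : (ι g).det = 1 := (g.1 : Matrix.SpecialLinearGroup (Fin n) K).2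
    rw [hc', zero_smul] at h1
    have hne : Nonempty (Fin n) := ⟨⟨0, Nat.pos_of_ne_zero hn⟩⟩
    rw [Matrix.det_zero] at h1
    exact zero_ne_one h1
  have hm : ∀ x, α g x = c • x := by
    intro x
    rw [actPerm_apply, hc', Matrix.smul_mulVec, Matrix.one_mulVec]
  apply Subtype.ext
  show α g '' S.1 = S.1
  ext y
  constructor
  · rintro ⟨x, hx, rfl⟩
    rw [hm]
    exact S.2 c hc0 x hx
  · intro hy
    refine ⟨c⁻¹ • y, S.2 _ (inv_ne_zero hc0) y hy, ?_⟩
    rw [hm, smul_smul, mul_inv_cancel₀ hc0, one_smul]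

/-- The action of the projective group. -/
noncomputable def β (hK : Fintype.card K = q ^ 2) (hn : n ≠ 0) : Cfsg.PSU n K q →* Equiv.Perm (Y K n) :=
  QuotientGroup.lift _ βt (fun g hg => Equiv.ext (center_act hK hn g hg))

/-- The quotient map. -/
noncomputable abbrev mkP : Cfsg.SU n K q →* Cfsg.PSU n K q := QuotientGroup.mk' _

theorem β_mk (hK : Fintype.card K = q ^ 2) (hn : n ≠ 0) (g : Cfsg.SU n K q) (S : Y K n) : β hK hn (mkP g) S = act g S := rfl

/-- The line through a vector. -/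
def line (u : Fin n → K) : Y K n :=
  ⟨{w | ∃ c : K, c ≠ 0 ∧ w = c • u}, by
    rintro c hc _ ⟨d, hd, rfl⟩
    exact ⟨c * d, mul_ne_zero hc hd, smul_smul _ _ _⟩⟩

theorem line_map (g : Cfsg.SU n K q) {u w : Fin n → K} {d : K} (hd : d ≠ 0) (h : α g u = d • w) : act g (line u) = line w := by
  apply Subtype.ext
  show α g '' _ = _
  ext y
  constructor
  · rintro ⟨x, ⟨c, hc, rfl⟩, rfl⟩
    exact ⟨c * d, mul_ne_zero hc hd, by rw [α_smul, h, smul_smul]⟩
  · rintro ⟨c, hc, rfl⟩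
    refine ⟨(c * d⁻¹) • u, ⟨c * d⁻¹, mul_ne_zero hc (inv_ne_zero hd), rfl⟩, ?_⟩
    rw [α_smul, h, smul_smul, mul_assoc, inv_mul_cancel₀ hd, mul_one]

/-! ### Packed matrices -/

variable (F : CF K)

/-- A scalar multiple of a packed vector. -/
noncomputable def scal (n c p : ℕ) : ℕ := pk F.q (fun i => F.mul c (dig F.q i p)) n 0

theorem hq0 : 0 < F.q := lt_trans Nat.zero_lt_one F.hq

theorem toV_scal (c p : ℕ) : toV F n (scal F n c p) = F.c c • toV F n p := by
  funext i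
  show F.c (dig F.q i (pk F.q _ n 0)) = F.c c * F.c (dig F.q i p)
  rw [dig_pk (hq0 F) (fun _ => (F.hmul _ _).1) i.2, Nat.zero_add, (F.hmul _ _).2]

theorem scal_lt (c p : ℕ) : scal F n c p < F.q ^ n :=
  pk_lt (hq0 F) (fun _ => (F.hmul _ _).1) n 0

theorem c_ne {d : ℕ} (hd : d < F.q) (h0 : d ≠ 0) : F.c d ≠ 0 := by
  intro h
  exact h0 (F.hinj d 0 hd (hq0 F) (h.trans F.h0.symm))

/-- The transpose of a number. -/
noncomputable def trP (n A : ℕ) : ℕ := pk F.q (fun idx => ent F n A (Nat.mod idx n) (Nat.div idx n)) (n * n) 0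

/-- The power of an entry. -/
noncomputable def frN (q x : ℕ) : ℕ := Nat.rec 1 (fun _ ih => F.mul ih x) q

theorem frN_lt (q x : ℕ) : frN F q x < F.q := by
  cases q with
  | zero => exact F.hq
  | succ m => exact (F.hmul _ _).1

theorem frN_c (q x : ℕ) : F.c (frN F q x) = F.c x ^ q := by
  induction q with
  | zero =>
    show F.c 1 = _
    rw [F.h1, pow_zero]
  | succ m ih =>
    show F.c (F.mul (frN F m x) x) = _
    rw [(F.hmul _ _).2, ih, pow_succ]

/-- The conjugate of a number. -/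
noncomputable def conjP (n q A : ℕ) : ℕ := pk F.q (fun idx => frN F q (dig F.q idx A)) (n * n) 0

theorem toM_trP (A : ℕ) : toM F n (trP F n A) = (toM F n A)ᵀ := by
  apply Matrix.ext
  intro i j
  show F.c (dig F.q (Nat.add (Nat.mul n i) j) (pk F.q _ (n * n) 0)) = F.c (ent F n A j i)
  have hi := i.2
  have hj := j.2
  have h1 : n * (i : ℕ) + j < n * n := by nlinarith
  have e0 : Nat.add (Nat.mul n i) j = n * (i : ℕ) + j := rfl
  rw [e0, dig_pk (hq0 F) (f := fun idx => ent F n A (Nat.mod idx n) (Nat.div idx n)) (fun _ => dig_lt (hq0 F) _ _) h1, Nat.zero_add]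
  have e1 : Nat.div (n * (i : ℕ) + j) n = i := by
    show (n * (i : ℕ) + j) / n = i
    rw [Nat.mul_add_div (by omega), Nat.div_eq_of_lt hj, Nat.add_zero]
  have e2 : Nat.mod (n * (i : ℕ) + j) n = j := by
    show (n * (i : ℕ) + j) % n = j
    rw [Nat.mul_add_mod, Nat.mod_eq_of_lt hj]
  simp only [e1, e2]

theorem toM_conjP (q A : ℕ) (fr : K →+* K) (hfr : ∀ x, fr x = x ^ q) : toM F n (conjP F n q A) = (toM F n A).map fr := by
  apply Matrix.ext
  intro i j
  show F.c (dig F.q (Nat.add (Nat.mul n i) j) (pk F.q _ (n * n) 0)) = fr (F.c (ent F n A i j))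
  have hi := i.2
  have hj := j.2
  have h1 : n * (i : ℕ) + j < n * n := by nlinarith
  have e0 : Nat.add (Nat.mul n i) j = n * (i : ℕ) + j := rfl
  rw [e0, dig_pk (hq0 F) (f := fun idx => frN F q (dig F.q idx A)) (fun _ => frN_lt F _ _) h1, Nat.zero_add, frN_c, hfr]
  rfl

theorem herm_eq (fr : K →+* K) (hfr : ∀ x, fr x = x ^ q) (u v : Fin n → K) : Cfsg.hermForm n K q u v = u ⬝ᵥ (fr ∘ v) := by
  unfold Cfsg.hermForm dotProduct
  refine Finset.sum_congr rfl fun i _ => ?_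
  show _ = u i * fr (v i)
  rw [hfr]

theorem fr_mulVec (fr : K →+* K) (A : Matrix (Fin n) (Fin n) K) (v : Fin n → K) : fr ∘ (A *ᵥ v) = A.map fr *ᵥ (fr ∘ v) := by
  funext i
  exact RingHom.map_mulVec fr A v i

theorem herm_pres (fr : K →+* K) (hfr : ∀ x, fr x = x ^ q) (A : ℕ) (h : mm F n (trP F n A) (conjP F n q A) = oneP F n) (u v : Fin n → K) :
    Cfsg.hermForm n K q (toM F n A *ᵥ u) (toM F n A *ᵥ v) = Cfsg.hermForm n K q u v := by
  have h1 : (toM F n A)ᵀ * (toM F n A).map fr = 1 := by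
    rw [← toM_trP, ← toM_conjP F q A fr hfr, ← toM_mm, h, toM_oneP]
  have h3 : ∀ (X : Matrix (Fin n) (Fin n) K) (u w : Fin n → K), (X *ᵥ u) ⬝ᵥ w = u ⬝ᵥ (Xᵀ *ᵥ w) := by
    intro X u w
    rw [Matrix.dotProduct_mulVec, Matrix.vecMul_transpose]
  rw [herm_eq fr hfr, herm_eq fr hfr, fr_mulVec, h3, Matrix.mulVec_mulVec, h1, Matrix.one_mulVec]

/-- A power of a packed matrix. -/
noncomputable def powP (n A m : ℕ) : ℕ := Nat.rec (oneP F n) (fun _ ih => mm F n A ih) m

theorem toM_powP (A m : ℕ) : toM F n (powP F n A m) = toM F n A ^ m := by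
  induction m with
  | zero =>
    show toM F n (oneP F n) = _
    rw [toM_oneP, pow_zero]
  | succ m ih =>
    show toM F n (mm F n A (powP F n A m)) = _
    rw [toM_mm, ih, pow_succ']

theorem det_of_pow (A m : ℕ) (h : powP F n A m = oneP F n) (hp : ∀ d : K, d ^ m = 1 → d = 1) : (toM F n A).det = 1 := by
  apply hp
  rw [← Matrix.det_pow, ← toM_powP, h, toM_oneP, Matrix.det_one]

/-! ### The data -/

/-- The data of a table of lines. -/
structure UData (F : CF K) (n q : ℕ) where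
  /-- number of generators -/
  ng : ℕ
  /-- number of lines -/
  N : ℕ
  /-- the generators -/
  B : ℕ → ℕ
  /-- the lines -/
  rp : ℕ → ℕ
  /-- the table -/
  tO : ℕ → ℕ → ℕ
  /-- the scalars -/
  dT : ℕ → ℕ → ℕ
  /-- all scalar multiples -/
  gM : ℕ → ℕ
  hdet : ∀ j, j < ng → (toM F n (B j)).det = 1
  hunit : ∀ j, j < ng → ∀ u v, Cfsg.hermForm n K q (toM F n (B j) *ᵥ u) (toM F n (B j) *ᵥ v) = Cfsg.hermForm n K q u v
  hL : ∀ m g, m < N → g < ng → tO m g < N ∧ dT m g < F.q ∧ dT m g ≠ 0 ∧ mv F n (B g) (rp m) = scal F n (dT m g) (rp (tO m g))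
  hrp : ∀ m, m < N → rp m < F.q ^ n
  hgM : ∀ a b, b + 1 < F.q → gM ((F.q - 1) * a + b) = scal F n (b + 1) (rp a)
  hU : ∀ k k', k < N * (F.q - 1) → k' < N * (F.q - 1) → gM k = gM k' → k = k'
  /-- a frame -/
  Pp : ℕ
  /-- its inverse -/
  Qp : ℕ
  /-- the lines of the frame -/
  Bn : ℕ → ℕ
  /-- a vector -/
  aN : ℕ
  /-- a line -/
  uN : ℕ
  hPcol : ∀ j i : Fin n, toM F n Pp i j = toV F n (rp (Bn j)) i
  hBlt : ∀ j, j < n → Bn j < N
  hQPm : mm F n Qp Pp = oneP F n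
  hPa : mv F n Pp aN = rp uN
  ha0 : ∀ i : Fin n, toV F n aN i ≠ 0
  huN : uN < N

namespace UData

variable {F} (D : UData F n q)

/-- A vector of a line. -/
noncomputable def vv (m : ℕ) : Fin n → K := toV F n (D.rp m)

/-- The lines. -/
noncomputable def τ (m : ℕ) : Y K n := line (D.vv m)

/-- The generators in the unitary group. -/
noncomputable def sG (j : ℕ) : Cfsg.SU n K q :=
  if h : j < D.ng then ⟨⟨toM F n (D.B j), D.hdet j h⟩, fun u v => D.hunit j h u v⟩ else 1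

theorem ι_sG {j : ℕ} (hj : j < D.ng) : ι (D.sG j) = toM F n (D.B j) := by
  show ((D.sG j).1 : Matrix.SpecialLinearGroup (Fin n) K).1 = _
  rw [sG, dif_pos hj]

theorem α_sG {j : ℕ} (hj : j < D.ng) (v : ℕ) : α (D.sG j) (toV F n v) = toV F n (mv F n (D.B j) v) := by
  rw [toV_mv, actPerm_apply, D.ι_sG hj]

theorem act_τ {g m : ℕ} (hg : g < D.ng) (hm : m < D.N) : act (D.sG g) (D.τ m) = D.τ (D.tO m g) := by
  obtain ⟨_, h1, h2, h3⟩ := D.hL m g hm hg
  refine line_map _ (c_ne F h1 h2) ?_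
  rw [vv, D.α_sG hg, h3, toV_scal]
  rfl

theorem τ_inj {a b : ℕ} (ha : a < D.N) (hb : b < D.N) (h : D.τ a = D.τ b) : a = b := by
  have h1 : D.vv a ∈ (D.τ b).1 := by
    rw [← h]
    exact ⟨1, one_ne_zero, (one_smul _ _).symm⟩
  obtain ⟨c, hc, h2⟩ := h1
  obtain ⟨hc1, hc2⟩ := F.hcode c
  have hc0 : F.code c ≠ 0 := by
    intro h0
    rw [h0, F.h0] at hc2
    exact hc hc2.symm
  have hq1 := F.hq
  have e1 : scal F n (F.code c) (D.rp b) = D.rp a :=
    toV_inj F (scal_lt F _ _) (D.hrp _ ha) (by rw [toV_scal, hc2]; exact h2.symm)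
  have e2 : scal F n 1 (D.rp a) = D.rp a :=
    toV_inj F (scal_lt F _ _) (D.hrp _ ha) (by rw [toV_scal, F.h1, one_smul])
  have e3 : D.gM ((F.q - 1) * a + 0) = D.gM ((F.q - 1) * b + (F.code c - 1)) := by
    rw [D.hgM _ _ (by omega), D.hgM _ _ (by omega), Nat.sub_add_cancel (by omega), e1, Nat.zero_add, e2]
  have hlt : ∀ x y, x < D.N → y < F.q - 1 → (F.q - 1) * x + y < D.N * (F.q - 1) := by
    intro x y hx hy
    have h5 : x + 1 ≤ D.N := hx
    have h6 : (x + 1) * (F.q - 1) ≤ D.N * (F.q - 1) := Nat.mul_le_mul_right _ h5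
    have h7 : (x + 1) * (F.q - 1) = (F.q - 1) * x + (F.q - 1) := by ring
    omega
  have h3 := D.hU _ _ (hlt a 0 ha (by omega)) (hlt b (F.code c - 1) hb (by omega)) e3
  have h4 : F.q - 1 ≠ 0 := by omega
  have hdiv : ∀ x y, y < F.q - 1 → ((F.q - 1) * x + y) / (F.q - 1) = x := by
    intro x y hy
    rw [Nat.mul_add_div (by omega), Nat.div_eq_of_lt hy, Nat.add_zero]
  have h5 := hdiv a 0 (by omega)
  rw [h3, hdiv b _ (by omega)] at h5
  exact h5.symm

/-- The lines as a set. -/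
noncomputable def Y0 : Set (Y K n) := D.τ '' {m | m < D.N}

theorem scalar_of_lines {n : ℕ} (A P Q : Matrix (Fin n) (Fin n) K) (hQP : Q * P = 1) (a : Fin n → K) (ha : ∀ i, a i ≠ 0)
    (c : K) (hc : A *ᵥ (P *ᵥ a) = c • (P *ᵥ a))
    (hcols : ∀ j, ∃ d : K, A *ᵥ (fun i => P i j) = d • (fun i => P i j)) : A = c • 1 := by
  choose d hd using hcols
  have h1 : A * P = P * Matrix.diagonal d := by
    apply Matrix.ext
    intro i j
    have h2 := congrFun (hd j) i
    rw [Matrix.mul_diagonal, Matrix.mul_apply]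
    have h3 : (A *ᵥ (fun i => P i j)) i = ∑ k, A i k * P k j := rfl
    rw [← h3, h2]
    simp [mul_comm]
  have h2 : P *ᵥ (Matrix.diagonal d *ᵥ a) = P *ᵥ (c • a) := by
    rw [Matrix.mulVec_mulVec, ← h1, ← Matrix.mulVec_mulVec, hc, Matrix.mulVec_smul]
  have h4' : ∀ x, Q *ᵥ (P *ᵥ x) = x := fun x => by
    rw [Matrix.mulVec_mulVec, hQP, Matrix.one_mulVec]
  have h3 : Matrix.diagonal d *ᵥ a = c • a := by
    rw [← h4' (Matrix.diagonal d *ᵥ a), h2, h4']
  have h4 : ∀ i, d i = c := by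
    intro i
    have h5 := congrFun h3 i
    rw [Matrix.mulVec_diagonal] at h5
    exact mul_right_cancel₀ (ha i) h5
  have h5 : A * P = c • P := by
    rw [h1]
    apply Matrix.ext
    intro i j
    rw [Matrix.mul_diagonal, h4, Matrix.smul_apply, smul_eq_mul, mul_comm]
  have h6 : P * Q = 1 := mul_eq_one_comm.1 hQP
  calc A = A * (P * Q) := by rw [h6, mul_one]
    _ = (A * P) * Q := by rw [mul_assoc]
    _ = c • 1 := by rw [h5, Matrix.smul_mul, h6]

/-- A vector of a line fixed by an element. -/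
theorem eig_of_fix (k : Cfsg.SU n K q) {m : ℕ} (h : act k (D.τ m) = D.τ m) : ∃ d : K, ι k *ᵥ D.vv m = d • D.vv m := by
  have h1 : α k (D.vv m) ∈ (act k (D.τ m)).1 := ⟨D.vv m, ⟨1, one_ne_zero, (one_smul _ _).symm⟩, rfl⟩
  rw [h] at h1
  obtain ⟨d, _, h2⟩ := h1
  exact ⟨d, h2⟩

theorem hβ (hK : Fintype.card K = q ^ 2) (hn : n ≠ 0) : ∀ k, (∀ y ∈ D.Y0, β hK hn k y = y) → k = 1 := by
  intro k hk
  obtain ⟨g, rfl⟩ := QuotientGroup.mk'_surjective _ k
  have hfix : ∀ m, m < D.N → ∃ d : K, ι g *ᵥ D.vv m = d • D.vv m := fun m hm => D.eig_of_fix g (hk _ ⟨m, hm, rfl⟩)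
  obtain ⟨c, hc⟩ := hfix D.uN D.huN
  have hu : toM F n D.Pp *ᵥ toV F n D.aN = D.vv D.uN := by
    rw [← toV_mv, D.hPa]
    rfl
  have h1 : ι g = c • 1 := by
    refine scalar_of_lines _ (toM F n D.Pp) (toM F n D.Qp) ?_ (toV F n D.aN) D.ha0 c ?_ ?_
    · rw [← toM_mm, D.hQPm, toM_oneP]
    · rw [hu]
      exact hc
    · intro j
      obtain ⟨d, hd⟩ := hfix (D.Bn j) (D.hBlt j j.2)
      refine ⟨d, ?_⟩
      have h2 : (fun i => toM F n D.Pp i j) = D.vv (D.Bn j) := funext fun i => D.hPcol j i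
      rw [h2]
      exact hd
  apply (QuotientGroup.eq_one_iff _).2
  rw [Subgroup.mem_center_iff]
  intro h
  apply ι_inj
  rw [map_mul, map_mul, h1, Matrix.smul_mul, Matrix.mul_smul, one_mul, mul_one]

end UData

end Cfsg.Agent.Lib.Conway.PSUK
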