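import Mathlib
import Cfsg.Agent.Lib.Classical.BinAlg
import Cfsg.Agent.Lib.Mat.Kit

/-!
# Two small fields with their elements numbered
-/

set_option autoImplicit false

namespace Cfsg.Agent.Lib.Conway.PSUK

open Cfsg.Agent.Lib.Classical.Bin Cfsg.Agent.Lib.Mat

/-- The field with 9 elements. -/
abbrev K9 := BinAlg (ZMod 3) (0 : ZMod 3) (-2 : ZMod 3)

instance k9dec : DecidableEq K9 := fun u v =>
  decidable_of_iff (u.re = v.re ∧ u.im = v.im) (by
    constructor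
    · rintro ⟨h1, h2⟩; exact BinAlg.ext h1 h2
    · rintro rfl; exact ⟨rfl, rfl⟩)

/-- Coordinates. -/
def k9Equiv : K9 ≃ ZMod 3 × ZMod 3 where
  toFun z := (z.re, z.im)
  invFun z := ⟨z.1, z.2⟩
  left_inv _ := rfl
  right_inv _ := rfl

instance k9fin : Fintype K9 := Fintype.ofEquiv _ k9Equiv.symm

theorem card_K9 : Fintype.card K9 = 3 ^ 2 := by
  rw [Fintype.card_congr k9Equiv]
  simp [ZMod.card]

instance k9field : Field K9 :=
  { (inferInstance : CommRing K9) with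
    inv := fun z => z ^ 7
    exists_pair_ne := ⟨0, 1, by decide +kernel⟩
    mul_inv_cancel := by decide +kernel
    inv_zero := by decide +kernel
    nnqsmul := _
    nnqsmul_def := fun _ _ => rfl
    qsmul := _
    qsmul_def := fun _ _ => rfl }

/-- The element of a number. -/
def c9 (a : ℕ) : K9 := ⟨((a % 3 : ℕ) : ZMod 3), ((a / 3 % 3 : ℕ) : ZMod 3)⟩

/-- The sum of numbers. -/
noncomputable def add9 (a b : ℕ) : ℕ :=
  Nat.add (Nat.mod (Nat.add (Nat.mod a 3) (Nat.mod b 3)) 3)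
    (Nat.mul 3 (Nat.mod (Nat.add (Nat.mod (Nat.div a 3) 3) (Nat.mod (Nat.div b 3) 3)) 3))

/-- The product of numbers. -/
noncomputable def mul9 (a b : ℕ) : ℕ :=
  Nat.add (Nat.mod (Nat.add (Nat.mul (Nat.mod a 3) (Nat.mod b 3)) (Nat.mul 2 (Nat.mul (Nat.mod (Nat.div a 3) 3) (Nat.mod (Nat.div b 3) 3)))) 3)
    (Nat.mul 3 (Nat.mod (Nat.add (Nat.mul (Nat.mod a 3) (Nat.mod (Nat.div b 3) 3)) (Nat.mul (Nat.mod (Nat.div a 3) 3) (Nat.mod b 3))) 3))

theorem c9_mod (a : ℕ) : c9 (a % 9) = c9 a := by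
  have h1 : a % 9 % 3 = a % 3 := by omega
  have h2 : a % 9 / 3 % 3 = a / 3 % 3 := by omega
  simp only [c9, h1, h2]

theorem add9_mod (a b : ℕ) : add9 (a % 9) (b % 9) = add9 a b := by
  have h1 : ∀ x : ℕ, x % 9 % 3 = x % 3 := fun x => by omega
  have h2 : ∀ x : ℕ, x % 9 / 3 % 3 = x / 3 % 3 := fun x => by omega
  show (a % 9 % 3 + b % 9 % 3) % 3 + 3 * ((a % 9 / 3 % 3 + b % 9 / 3 % 3) % 3) = (a % 3 + b % 3) % 3 + 3 * ((a / 3 % 3 + b / 3 % 3) % 3)
  rw [h1, h1, h2, h2]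

theorem mul9_mod (a b : ℕ) : mul9 (a % 9) (b % 9) = mul9 a b := by
  have h1 : ∀ x : ℕ, x % 9 % 3 = x % 3 := fun x => by omega
  have h2 : ∀ x : ℕ, x % 9 / 3 % 3 = x / 3 % 3 := fun x => by omega
  show (a % 9 % 3 * (b % 9 % 3) + 2 * (a % 9 / 3 % 3 * (b % 9 / 3 % 3))) % 3 + 3 * ((a % 9 % 3 * (b % 9 / 3 % 3) + a % 9 / 3 % 3 * (b % 9 % 3)) % 3) =
    (a % 3 * (b % 3) + 2 * (a / 3 % 3 * (b / 3 % 3))) % 3 + 3 * ((a % 3 * (b / 3 % 3) + a / 3 % 3 * (b % 3)) % 3)
  rw [h1, h1, h2, h2]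

theorem add9_small : ∀ i, i < 9 → ∀ j, j < 9 → add9 i j < 9 ∧ c9 (add9 i j) = c9 i + c9 j := by
  decide +kernel

theorem mul9_small : ∀ i, i < 9 → ∀ j, j < 9 → mul9 i j < 9 ∧ c9 (mul9 i j) = c9 i * c9 j := by
  decide +kernel

theorem c9_code : ∀ x : K9, x.re.val + 3 * x.im.val < 9 ∧ c9 (x.re.val + 3 * x.im.val) = x := by
  decide +kernel

theorem c9_inj : ∀ i, i < 9 → ∀ j, j < 9 → c9 i = c9 j → i = j := by
  decide +kernel

/-- The numbering of the field. -/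
noncomputable def cf9 : CF K9 where
  q := 9
  c := c9
  code x := x.re.val + 3 * x.im.val
  add := add9
  mul := mul9
  hq := by norm_num
  hcode := c9_code
  hinj a b ha hb h := c9_inj a ha b hb h
  hadd a b := by
    have h := add9_small (a % 9) (Nat.mod_lt _ (by norm_num)) (b % 9) (Nat.mod_lt _ (by norm_num))
    rw [add9_mod, c9_mod, c9_mod] at h
    exact h
  hmul a b := by
    have h := mul9_small (a % 9) (Nat.mod_lt _ (by norm_num)) (b % 9) (Nat.mod_lt _ (by norm_num))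
    rw [mul9_mod, c9_mod, c9_mod] at h
    exact h
  h0 := by decide +kernel
  h1 := by decide +kernel

/-- The power map. -/
noncomputable def fr9 : K9 →+* K9 where
  toFun x := x ^ 3
  map_one' := by decide +kernel
  map_mul' := by decide +kernel
  map_zero' := by decide +kernel
  map_add' := by decide +kernel

theorem powone9 : ∀ d : K9, d ^ 3 = 1 → d = 1 := by decide +kernel

end Cfsg.Agent.Lib.Conway.PSUK
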