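import Mathlib
import Cfsg.Agent.Lib.Classical.BinAlg
import Cfsg.Agent.Lib.Mat.Kit

/-!
# The field with twenty-five elements, with its elements numbered
-/

set_option autoImplicit false

namespace Cfsg.Agent.Lib.Conway.PSUK

open Cfsg.Agent.Lib.Classical.Bin Cfsg.Agent.Lib.Mat

instance factFive : Fact (Nat.Prime 5) := ⟨by norm_num⟩

/-- The field with 25 elements. -/
abbrev K25 := BinAlg (ZMod 5) (0 : ZMod 5) (-2 : ZMod 5)

instance k25dec : DecidableEq K25 := fun u v =>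
  decidable_of_iff (u.re = v.re ∧ u.im = v.im) (by
    constructor
    · rintro ⟨h1, h2⟩; exact BinAlg.ext h1 h2
    · rintro rfl; exact ⟨rfl, rfl⟩)

/-- Coordinates. -/
def k25Equiv : K25 ≃ ZMod 5 × ZMod 5 where
  toFun z := (z.re, z.im)
  invFun z := ⟨z.1, z.2⟩
  left_inv _ := rfl
  right_inv _ := rfl

instance k25fin : Fintype K25 := Fintype.ofEquiv _ k25Equiv.symm

theorem card_K25 : Fintype.card K25 = 5 ^ 2 := by
  rw [Fintype.card_congr k25Equiv]
  simp [ZMod.card]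

instance k25field : Field K25 :=
  { (inferInstance : CommRing K25) with
    inv := fun z => z ^ 23
    exists_pair_ne := ⟨0, 1, by decide +kernel⟩
    mul_inv_cancel := by decide +kernel
    inv_zero := by decide +kernel
    nnqsmul := _
    nnqsmul_def := fun _ _ => rfl
    qsmul := _
    qsmul_def := fun _ _ => rfl }

/-- The element of a number. -/
def c25 (a : ℕ) : K25 := ⟨((a % 5 : ℕ) : ZMod 5), ((a / 5 % 5 : ℕ) : ZMod 5)⟩

/-- The sum of numbers. -/
noncomputable def add25 (a b : ℕ) : ℕ :=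
  Nat.add (Nat.mod (Nat.add (Nat.mod a 5) (Nat.mod b 5)) 5)
    (Nat.mul 5 (Nat.mod (Nat.add (Nat.mod (Nat.div a 5) 5) (Nat.mod (Nat.div b 5) 5)) 5))

/-- The product of numbers. -/
noncomputable def mul25 (a b : ℕ) : ℕ :=
  Nat.add (Nat.mod (Nat.add (Nat.mul (Nat.mod a 5) (Nat.mod b 5)) (Nat.mul 2 (Nat.mul (Nat.mod (Nat.div a 5) 5) (Nat.mod (Nat.div b 5) 5)))) 5)
    (Nat.mul 5 (Nat.mod (Nat.add (Nat.mul (Nat.mod a 5) (Nat.mod (Nat.div b 5) 5)) (Nat.mul (Nat.mod (Nat.div a 5) 5) (Nat.mod b 5))) 5))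

theorem c25_mod (a : ℕ) : c25 (a % 25) = c25 a := by
  have h1 : a % 25 % 5 = a % 5 := by omega
  have h2 : a % 25 / 5 % 5 = a / 5 % 5 := by omega
  simp only [c25, h1, h2]

theorem add25_mod (a b : ℕ) : add25 (a % 25) (b % 25) = add25 a b := by
  have h1 : ∀ x : ℕ, x % 25 % 5 = x % 5 := fun x => by omega
  have h2 : ∀ x : ℕ, x % 25 / 5 % 5 = x / 5 % 5 := fun x => by omega
  show (a % 25 % 5 + b % 25 % 5) % 5 + 5 * ((a % 25 / 5 % 5 + b % 25 / 5 % 5) % 5) = (a % 5 + b % 5) % 5 + 5 * ((a / 5 % 5 + b / 5 % 5) % 5)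
  rw [h1, h1, h2, h2]

theorem mul25_mod (a b : ℕ) : mul25 (a % 25) (b % 25) = mul25 a b := by
  have h1 : ∀ x : ℕ, x % 25 % 5 = x % 5 := fun x => by omega
  have h2 : ∀ x : ℕ, x % 25 / 5 % 5 = x / 5 % 5 := fun x => by omega
  show (a % 25 % 5 * (b % 25 % 5) + 2 * (a % 25 / 5 % 5 * (b % 25 / 5 % 5))) % 5 + 5 * ((a % 25 % 5 * (b % 25 / 5 % 5) + a % 25 / 5 % 5 * (b % 25 % 5)) % 5) =
    (a % 5 * (b % 5) + 2 * (a / 5 % 5 * (b / 5 % 5))) % 5 + 5 * ((a % 5 * (b / 5 % 5) + a / 5 % 5 * (b % 5)) % 5)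
  rw [h1, h1, h2, h2]

theorem add25_small : ∀ i, i < 25 → ∀ j, j < 25 → add25 i j < 25 ∧ c25 (add25 i j) = c25 i + c25 j := by
  decide +kernel

theorem mul25_small : ∀ i, i < 25 → ∀ j, j < 25 → mul25 i j < 25 ∧ c25 (mul25 i j) = c25 i * c25 j := by
  decide +kernel

theorem c25_code : ∀ x : K25, x.re.val + 5 * x.im.val < 25 ∧ c25 (x.re.val + 5 * x.im.val) = x := by
  decide +kernel

theorem c25_inj : ∀ i, i < 25 → ∀ j, j < 25 → c25 i = c25 j → i = j := by
  decide +kernel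

/-- The numbering of the field. -/
noncomputable def cf25 : CF K25 where
  q := 25
  c := c25
  code x := x.re.val + 5 * x.im.val
  add := add25
  mul := mul25
  hq := by norm_num
  hcode := c25_code
  hinj a b ha hb h := c25_inj a ha b hb h
  hadd a b := by
    have h := add25_small (a % 25) (Nat.mod_lt _ (by norm_num)) (b % 25) (Nat.mod_lt _ (by norm_num))
    rw [add25_mod, c25_mod, c25_mod] at h
    exact h
  hmul a b := by
    have h := mul25_small (a % 25) (Nat.mod_lt _ (by norm_num)) (b % 25) (Nat.mod_lt _ (by norm_num))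
    rw [mul25_mod, c25_mod, c25_mod] at h
    exact h
  h0 := by decide +kernel
  h1 := by decide +kernel

/-- The power map. -/
noncomputable def fr25 : K25 →+* K25 where
  toFun x := x ^ 5
  map_one' := by decide +kernel
  map_mul' := by decide +kernel
  map_zero' := by decide +kernel
  map_add' := by decide +kernel

theorem powone25 : ∀ d : K25, d ^ 5 = 1 → d = 1 := by decide +kernel


end Cfsg.Agent.Lib.Conway.PSUK
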